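import Mathlib
import Cfsg.Agent.MaxClass.Basic

/-!
Counting subgroups of order p / index p.  Owner: helper58.
-/

set_option autoImplicit false

namespace Cfsg.Agent.MaxClass

open Group Subgroup
open scoped commutatorElement

universe u

/-- a finite group with `p^2` elements all of `p`-power one has `p + 1` subgroups of order `p` -/
theorem card_subgroups_of_order_prime {Q : Type u} [Group Q] [Finite Q] {p : ℕ} [hp : Fact p.Prime]
    (hQ : Nat.card Q = p ^ 2) (hexp : ∀ x : Q, x ^ p = 1) :
    Nat.card {H : Subgroup Q // Nat.card H = p} = p + 1 := by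
  classical
  have hp1 := hp.out.one_lt
  have hord : ∀ x : Q, x ≠ 1 → orderOf x = p := fun x hx => orderOf_eq_prime (hexp x) hx
  -- the bijection
  let e : {x : Q // x ≠ 1} ≃ Σ H : {H : Subgroup Q // Nat.card H = p}, {x : H.1 // x ≠ 1} :=
    { toFun := fun x => ⟨⟨zpowers (x : Q), by rw [Nat.card_zpowers, hord x x.2]⟩,
        ⟨⟨x, mem_zpowers _⟩, fun h => x.2 (congrArg Subtype.val h)⟩⟩
      invFun := fun y => ⟨(y.2.1 : Q), fun h => y.2.2 (Subtype.ext h)⟩
      left_inv := by rintro ⟨x, hx⟩; rfl
      right_inv := by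
        rintro ⟨⟨H, hH⟩, ⟨⟨x, hxH⟩, hx⟩⟩
        have hx1 : x ≠ 1 := fun h => hx (Subtype.ext h)
        have hz : zpowers x = H := by
          apply Subgroup.eq_of_le_of_card_ge
          · rw [zpowers_le]; exact hxH
          · rw [hH, Nat.card_zpowers, hord x hx1]
        subst hz
        rfl }
  have h1 := Nat.card_congr e
  have hfin : Finite {H : Subgroup Q // Nat.card H = p} := inferInstance
  have : Fintype {H : Subgroup Q // Nat.card H = p} := Fintype.ofFinite _
  rw [Nat.card_sigma] at h1
  have hne : ∀ (α : Type u) [Group α] [Finite α], Nat.card {x : α // x ≠ 1} = Nat.card α - 1 := by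
    intro α _ _
    have : Fintype α := Fintype.ofFinite α
    rw [Nat.card_eq_fintype_card, Nat.card_eq_fintype_card, Fintype.card_subtype_compl,
      Fintype.card_subtype_eq]
  rw [hne, hQ] at h1
  have h2 : ∀ H : {H : Subgroup Q // Nat.card H = p}, Nat.card {x : H.1 // x ≠ 1} = p - 1 := by
    rintro ⟨H, hH⟩
    rw [hne, hH]
  simp only [h2] at h1
  rw [Finset.sum_const, Finset.card_univ, smul_eq_mul] at h1
  rw [Nat.card_eq_fintype_card]
  have h3 : p ^ 2 - 1 = (p + 1) * (p - 1) := by
    have := Nat.sq_sub_sq p 1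
    simpa using this
  rw [h3] at h1
  exact (Nat.eq_of_mul_eq_mul_right (by omega) h1).symm

/-- normal subgroups of index p of a group correspond to subgroups of order p of the
abelianization when the latter has order p^2 -/
theorem card_normal_index_prime {G : Type u} [Group G] [Finite G] {p : ℕ} [hp : Fact p.Prime]
    (hidx : (commutator G).index = p ^ 2) (hncyc : ¬ IsCyclic (G ⧸ commutator G)) :
    Nat.card {N : Subgroup G // N.Normal ∧ N.index = p} = p + 1 := by
  have hp1 := hp.out.one_lt
  have hQ : Nat.card (G ⧸ commutator G) = p ^ 2 := by rw [← hidx]; rfl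
  have hexp : ∀ x : G ⧸ commutator G, x ^ p = 1 := by
    intro x
    have h1 : orderOf x ∣ p ^ 2 := by rw [← hQ]; exact orderOf_dvd_natCard x
    obtain ⟨k, hk, hk'⟩ := (Nat.dvd_prime_pow hp.out).1 h1
    have hk2 : k ≠ 2 := by
      rintro rfl
      exact hncyc (isCyclic_of_orderOf_eq_card x (by rw [hk', hQ]))
    apply orderOf_dvd_iff_pow_eq_one.1
    rw [hk']
    calc p ^ k ∣ p ^ 1 := pow_dvd_pow p (by omega)
      _ = p := pow_one p
  rw [← card_subgroups_of_order_prime hQ hexp]
  set π := QuotientGroup.mk' (commutator G) with hπ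
  have hπs : Function.Surjective π := QuotientGroup.mk'_surjective _
  have hG'le : ∀ N : Subgroup G, N.Normal → N.index = p → commutator G ≤ N := by
    intro N hN hNi
    have hcard : Nat.card (G ⧸ N) = p := by rw [← hNi]; rfl
    have hcyc : IsCyclic (G ⧸ N) := isCyclic_of_prime_card hcard
    rw [_root_.commutator_def, commutator_le]
    intro x _ y _
    have h1 : (x : G ⧸ N) * y = y * x := (IsCyclic.commGroup (α := G ⧸ N)).mul_comm _ _
    rw [← QuotientGroup.mk_mul, ← QuotientGroup.mk_mul, QuotientGroup.eq_iff_div_mem] at h1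
    have h2 : (x * y) / (y * x) = ⁅x, y⁆ := by
      rw [commutatorElement_def, div_eq_mul_inv, mul_inv_rev, ← mul_assoc]
    rwa [h2] at h1
  apply Nat.card_congr
  refine
    { toFun := fun N => ⟨N.1.map π, ?_⟩
      invFun := fun H => ⟨H.1.comap π, ?_, ?_⟩
      left_inv := ?_
      right_inv := ?_ }
  · have h1 := Subgroup.card_mul_index (N.1.map π)
    rw [Subgroup.index_map_eq N.1 hπs (by rw [QuotientGroup.ker_mk']; exact hG'le _ N.2.1 N.2.2),
      N.2.2, hQ, sq] at h1
    exact Nat.eq_of_mul_eq_mul_right hp.out.pos h1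
  · have hcomm : ∀ x y : G ⧸ commutator G, x * y = y * x := by
      intro x y
      exact (inferInstance : CommGroup (Abelianization G)).mul_comm x y
    have : H.1.Normal := ⟨fun n hn g => by rwa [hcomm g n, mul_inv_cancel_right]⟩
    exact this.comap π
  · rw [Subgroup.index_comap_of_surjective _ hπs]
    have h1 := Subgroup.card_mul_index H.1
    rw [H.2, hQ, sq] at h1
    exact Nat.eq_of_mul_eq_mul_left hp.out.pos h1
  · rintro ⟨N, hN, hNi⟩
    apply Subtype.ext
    show (N.map π).comap π = N
    rw [Subgroup.comap_map_eq, QuotientGroup.ker_mk']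
    exact sup_eq_left.2 (hG'le N hN hNi)
  · rintro ⟨H, hH⟩
    apply Subtype.ext
    exact Subgroup.map_comap_eq_self_of_surjective hπs H

end Cfsg.Agent.MaxClass
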